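import Cfsg.Agent.Lib.Helper90.Sp.Defs

set_option autoImplicit false
set_option linter.unusedSectionVars false

/-! # adjoints for a symplectic form (helper23) -/

namespace Cfsg.Agent.Lib.Helper23.Sp

open Cfsg Cfsg.Geo Matrix Cfsg.Agent.Lib.Helper13.Asch Cfsg.Agent.Lib.Helper90.Sp
open scoped Kronecker MatrixGroups

variable {ι : Type} [Fintype ι] [DecidableEq ι] {F : Type*} [Field F]

/-- `y` is an adjoint of `x` -/
def IsAdj (f : (ι → F) → (ι → F) → F) (x y : Matrix ι ι F) : Prop :=
  ∀ u v : ι → F, f (x *ᵥ u) v = f u (y *ᵥ v)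

theorem form_neg_right {f : (ι → F) → (ι → F) → F} (hb : IsBilinearForm f) (u v : ι → F) :
    f u (-v) = - f u v := by
  have := hb.smul_right (-1) u v
  simpa using this

theorem form_sub_right {f : (ι → F) → (ι → F) → F} (hb : IsBilinearForm f) (u v w : ι → F) :
    f u (v - w) = f u v - f u w := by
  rw [sub_eq_add_neg, hb.add_right, form_neg_right hb, sub_eq_add_neg]

theorem form_zero_right {f : (ι → F) → (ι → F) → F} (hb : IsBilinearForm f) (u : ι → F) :
    f u 0 = 0 := by
  have := hb.smul_right 0 u 0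
  simpa using this

theorem form_zero_left {f : (ι → F) → (ι → F) → F} (hb : IsBilinearForm f) (u : ι → F) :
    f 0 u = 0 := by
  have := hb.smul_left 0 0 u
  simpa using this

theorem eq_of_form_right {f : (ι → F) → (ι → F) → F} (hb : IsBilinearForm f)
    (hn : IsNondegenerateForm f) {v w : ι → F} (h : ∀ u, f u v = f u w) : v = w := by
  by_contra hne
  obtain ⟨x, hx⟩ := (hn (v - w) (sub_ne_zero.2 hne)).1
  apply hx
  rw [form_sub_right hb, h x, sub_self]

theorem mat_ext_mulVec {x y : Matrix ι ι F} (h : ∀ v, x *ᵥ v = y *ᵥ v) : x = y :=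
  Matrix.toLin'.injective (LinearMap.ext fun v => by simpa using h v)

theorem IsAdj.unique {f : (ι → F) → (ι → F) → F} (hb : IsBilinearForm f)
    (hn : IsNondegenerateForm f) {x y y' : Matrix ι ι F} (h : IsAdj f x y) (h' : IsAdj f x y') :
    y = y' :=
  mat_ext_mulVec fun v => eq_of_form_right hb hn fun u => by rw [← h u v, h' u v]

theorem IsAdj.one (f : (ι → F) → (ι → F) → F) : IsAdj f 1 1 := by
  intro u v
  rw [Matrix.one_mulVec, Matrix.one_mulVec]

theorem IsAdj.mul {f : (ι → F) → (ι → F) → F} {x y x' y' : Matrix ι ι F} (h : IsAdj f x y)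
    (h' : IsAdj f x' y') : IsAdj f (x * x') (y' * y) := by
  intro u v
  rw [← Matrix.mulVec_mulVec, h, h', Matrix.mulVec_mulVec]

theorem IsAdj.pow {f : (ι → F) → (ι → F) → F} {x y : Matrix ι ι F} (h : IsAdj f x y) (n : ℕ) :
    IsAdj f (x ^ n) (y ^ n) := by
  induction n with
  | zero => simpa using IsAdj.one f
  | succ n ih =>
    rw [pow_succ, pow_succ']
    exact ih.mul h

theorem IsAdj.add {f : (ι → F) → (ι → F) → F} (hb : IsBilinearForm f) {x y x' y' : Matrix ι ι F}
    (h : IsAdj f x y) (h' : IsAdj f x' y') : IsAdj f (x + x') (y + y') := by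
  intro u v
  rw [Matrix.add_mulVec, Matrix.add_mulVec, hb.add_left, hb.add_right, h, h']

theorem IsAdj.smul {f : (ι → F) → (ι → F) → F} (hb : IsBilinearForm f) {x y : Matrix ι ι F}
    (h : IsAdj f x y) (c : F) : IsAdj f (c • x) (c • y) := by
  intro u v
  rw [Matrix.smul_mulVec, Matrix.smul_mulVec, hb.smul_left, hb.smul_right, h]

/-- for a skew form adjunction is symmetric -/
theorem IsAdj.symm {f : (ι → F) → (ι → F) → F} (hs : ∀ v w, f v w = - f w v) {x y : Matrix ι ι F}
    (h : IsAdj f x y) : IsAdj f y x := by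
  intro u v
  rw [hs (y *ᵥ u) v, ← h v u, hs (x *ᵥ v) u, neg_neg]

end Cfsg.Agent.Lib.Helper23.Sp
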