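import Cfsg.Agent.Lib.Helper23.Sp.Adj
import Cfsg.Agent.Lib.Helper58.Asch.L3

set_option autoImplicit false
set_option linter.unusedSectionVars false

namespace Cfsg.Agent.Lib.Helper23.Sp

open Cfsg Cfsg.Geo Matrix Cfsg.Agent.Lib.Helper13.Asch Cfsg.Agent.Lib.Helper90.Sp
open scoped Kronecker MatrixGroups

variable {ι : Type} [Fintype ι] [DecidableEq ι] {F : Type*} [Field F]

/-- SE1 -/
theorem prime_subfield_adj [Fintype F] {f : (ι → F) → (ι → F) → F} (hf : IsSymplecticForm f)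
    (H : Subgroup (GL ι F)) (K : Subalgebra F (Matrix ι ι F))
    (hK : H ≤ subalgebraNormalizer K) (hcomm : ∀ x ∈ K, ∀ y ∈ K, x * y = y * x)
    (hinv : ∀ x ∈ K, x ≠ 0 → ∃ y ∈ K, x * y = 1) (hne : ∃ x ∈ K, ∀ c : F, x ≠ c • 1)
    (hadj : IsAdjointClosedFor f K) :
    ∃ (r : ℕ) (K' : Subalgebra F (Matrix ι ι F)), r.Prime ∧ IsFieldSubalgebra r K' ∧
      H ≤ subalgebraNormalizer K' ∧ IsAdjointClosedFor f K' := by
  obtain ⟨x₀, hx₀K, hx₀⟩ := hne
  have hnt : Nontrivial (Matrix ι ι F) := ⟨x₀, 0, by simpa using hx₀ 0⟩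
  have hfield : IsField ↥K :=
    { exists_pair_ne := ⟨0, 1, fun h => zero_ne_one (congrArg Subtype.val h)⟩
      mul_comm := fun x y => Subtype.ext (hcomm x.1 x.2 y.1 y.2)
      mul_inv_cancel := by
        intro a ha
        obtain ⟨y, hy, hay⟩ := hinv a.1 a.2 (fun h => ha (Subtype.ext h))
        exact ⟨⟨y, hy⟩, Subtype.ext hay⟩ }
  let instF : Field ↥K := hfield.toField
  let instA : Algebra F ↥K := K.algebra
  have hfinite : Finite ↥K := inferInstance
  let ψ : ↥K →ₐ[F] Matrix ι ι F := K.val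
  obtain ⟨r, K', hr, hK', hmem⟩ := Cfsg.Agent.Lib.Helper58.Asch.exists_prime_subfield_matrix (↥K) ψ
    ⟨⟨x₀, hx₀K⟩, fun c h => hx₀ c (by
      have := congrArg Subtype.val h
      rw [Algebra.smul_def, mul_one]
      exact this)⟩
  have hmem' : ∀ k, k ∈ K' ↔ k ∈ K ∧ k ^ (Fintype.card F ^ r) = k := by
    intro k
    rw [hmem]
    constructor
    · rintro ⟨⟨x, rfl⟩, h⟩
      exact ⟨x.2, h⟩
    · rintro ⟨hk, h⟩
      exact ⟨⟨⟨k, hk⟩, rfl⟩, h⟩
  refine ⟨r, K', hr, hK', ?_, ?_⟩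
  · intro g hg k
    have h1 : (g : Matrix ι ι F) * ((g⁻¹ : GL ι F) : Matrix ι ι F) = 1 := by
      rw [← Units.val_mul, mul_inv_cancel, Units.val_one]
    have h2 : ((g⁻¹ : GL ι F) : Matrix ι ι F) * (g : Matrix ι ι F) = 1 := by
      rw [← Units.val_mul, inv_mul_cancel, Units.val_one]
    have hpow : ∀ n : ℕ, ((g : Matrix ι ι F) * k * ((g⁻¹ : GL ι F) : Matrix ι ι F)) ^ n =
        (g : Matrix ι ι F) * k ^ n * ((g⁻¹ : GL ι F) : Matrix ι ι F) := by
      intro n
      induction n with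
      | zero => simp
      | succ n ih =>
        rw [pow_succ, ih, pow_succ]
        calc _ = (g : Matrix ι ι F) * k ^ n * (((g⁻¹ : GL ι F) : Matrix ι ι F) * (g : Matrix ι ι F)) * k *
              ((g⁻¹ : GL ι F) : Matrix ι ι F) := by simp only [mul_assoc]
          _ = _ := by rw [h2, mul_one]; simp only [mul_assoc]
    rw [hmem', hmem', hpow, ← hK hg k]
    refine and_congr_right ?_
    intro _
    constructor
    · intro h
      rw [h]
    · intro h
      have h3 := congrArg (fun M => ((g⁻¹ : GL ι F) : Matrix ι ι F) * M * (g : Matrix ι ι F)) h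
      have h4 : ∀ M : Matrix ι ι F, ((g⁻¹ : GL ι F) : Matrix ι ι F) *
          ((g : Matrix ι ι F) * M * ((g⁻¹ : GL ι F) : Matrix ι ι F)) * (g : Matrix ι ι F) = M := by
        intro M
        calc _ = (((g⁻¹ : GL ι F) : Matrix ι ι F) * (g : Matrix ι ι F)) * M *
              (((g⁻¹ : GL ι F) : Matrix ι ι F) * (g : Matrix ι ι F)) := by simp only [mul_assoc]
          _ = M := by rw [h2, one_mul, mul_one]
      rwa [h4, h4] at h3
  · intro k hk
    obtain ⟨hkK, hkp⟩ := (hmem' k).1 hk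
    obtain ⟨k', hk'K, hk'⟩ := hadj k hkK
    refine ⟨k', (hmem' k').2 ⟨hk'K, ?_⟩, hk'⟩
    have h1 : IsAdj f k k' := hk'
    have h2 := h1.pow (Fintype.card F ^ r)
    rw [hkp] at h2
    exact h2.unique hf.bilinear hf.nondegenerate h1

end Cfsg.Agent.Lib.Helper23.Sp
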