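import Cfsg.Agent.Lib.Helper23.Sp.Adj
import Cfsg.Agent.Lib.Helper58.Asch.D6
import Cfsg.Agent.Lib.Helper55.Asch.L9e

set_option autoImplicit false
set_option linter.unusedSectionVars false

namespace Cfsg.Agent.Lib.Helper23.Sp

open Cfsg Cfsg.Geo Matrix Cfsg.Agent.Lib.Helper13.Asch Cfsg.Agent.Lib.Helper90.Sp
open scoped Kronecker MatrixGroups

variable {ι : Type} [Fintype ι] [DecidableEq ι] {F : Type*} [Field F]

/-- SE2 -/
theorem sp_field_selfadjoint [Fintype F] (hι : 4 ≤ Fintype.card ι) {f : (ι → F) → (ι → F) → F}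
    (hf : IsSymplecticForm f) {H : Subgroup (GL ι F)} (hH : FixesForm (matrixSet H) f)
    (hirr : ActsIrreducibly (matrixSet H)) {r : ℕ} (hr : r.Prime) (K : Subalgebra F (Matrix ι ι F))
    (hK : IsFieldSubalgebra r K) (hHK : H ≤ subalgebraNormalizer K) (hsa : IsSelfAdjointFor f K) :
    ∀ k ∈ K, ∀ v, f (k *ᵥ v) v = 0 := by
  classical
  have hb := hf.bilinear
  by_cases h2 : (2 : F) = 0
  swap
  · intro k hk v
    have h1 := hsa k hk v v
    have h3 := hf.skew v (k *ᵥ v)
    have h4 : (2 : F) * f (k *ᵥ v) v = 0 := by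
      rw [h3] at h1
      linear_combination h1
    exact (mul_eq_zero.1 h4).resolve_left h2
  have hcross : ∀ k ∈ K, ∀ u v, f (k *ᵥ u) v + f (k *ᵥ v) u = 0 := by
    intro k hk u v
    rw [hsa k hk v u, hf.skew v (k *ᵥ u)]
    ring
  have hadd : ∀ k ∈ K, ∀ u v, f (k *ᵥ (u + v)) (u + v) = f (k *ᵥ u) u + f (k *ᵥ v) v := by
    intro k hk u v
    rw [Matrix.mulVec_add, hb.add_left, hb.add_right, hb.add_right]
    have := hcross k hk u v
    linear_combination this
  have hsmul : ∀ (k : Matrix ι ι F) (c : F) (v : ι → F),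
      f (k *ᵥ (c • v)) (c • v) = c ^ 2 * f (k *ᵥ v) v := by
    intro k c v
    rw [Matrix.mulVec_smul, hb.smul_left, hb.smul_right]
    ring
  let U : Submodule F (ι → F) :=
    { carrier := {v | ∀ k ∈ K, f (k *ᵥ v) v = 0}
      add_mem' := by
        intro u v hu hv k hk
        rw [hadd k hk, hu k hk, hv k hk, add_zero]
      zero_mem' := by
        intro k hk
        rw [Matrix.mulVec_zero]
        exact form_zero_left hb 0
      smul_mem' := by
        intro c v hv k hk
        rw [hsmul, hv k hk, mul_zero] }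
  have hUinv : ∀ s ∈ matrixSet H, U.map (Matrix.toLin' s) ≤ U := by
    rintro _ ⟨h, hh, rfl⟩ _ ⟨v, hv, rfl⟩ k hk
    rw [Matrix.toLin'_apply]
    have hk' : ((h⁻¹ : GL ι F) : Matrix ι ι F) * k * (((h⁻¹)⁻¹ : GL ι F) : Matrix ι ι F) ∈ K :=
      (hHK (H.inv_mem hh) k).1 hk
    rw [inv_inv] at hk'
    have h1 := hv _ hk'
    have h3 := hH (h : Matrix ι ι F) ⟨h, hh, rfl⟩
      ((((h⁻¹ : GL ι F) : Matrix ι ι F) * k * (h : Matrix ι ι F)) *ᵥ v) v
    rw [h1] at h3
    rw [← h3]
    congr 1
    rw [Matrix.mulVec_mulVec, Matrix.mulVec_mulVec]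
    congr 1
    have h4 : (h : Matrix ι ι F) * ((h⁻¹ : GL ι F) : Matrix ι ι F) = 1 := by
      rw [← Units.val_mul, mul_inv_cancel, Units.val_one]
    rw [← mul_assoc, ← mul_assoc, h4, one_mul]
  rcases hirr U hUinv with hU | hU
  swap
  · intro k hk v
    have hv : v ∈ U := by rw [hU]; trivial
    exact hv k hk
  exfalso
  let b := Module.finBasis F ↥K
  let Φ : (ι → F) →+ (Fin (Module.finrank F ↥K) → F) :=
    AddMonoidHom.mk' (fun v i => f ((b i).1 *ᵥ v) v) (by
      intro u v
      funext i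
      exact hadd _ (b i).2 u v)
  have hinj : Function.Injective Φ := by
    rw [injective_iff_map_eq_zero]
    intro v hv
    have hvU : v ∈ U := by
      intro k hk
      let L : ↥K →ₗ[F] F :=
        { toFun := fun k => f (k.1 *ᵥ v) v
          map_add' := by
            intro x y
            show f ((x.1 + y.1) *ᵥ v) v = _
            rw [Matrix.add_mulVec, hb.add_left]
          map_smul' := by
            intro c x
            show f ((c • x.1) *ᵥ v) v = _
            rw [Matrix.smul_mulVec, hb.smul_left]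
            rfl }
      have h1 : L ⟨k, hk⟩ = 0 := by
        rw [← b.sum_repr ⟨k, hk⟩, map_sum]
        apply Finset.sum_eq_zero
        intro i _
        rw [map_smul]
        have h5 : L (b i) = 0 := congrFun hv i
        rw [h5, smul_zero]
      exact h1
    rw [hU] at hvU
    exact (Submodule.mem_bot F).1 hvU
  have hcard := Fintype.card_le_of_injective Φ hinj
  rw [Fintype.card_fun, Fintype.card_fun, Fintype.card_fin, hK.finrank_eq] at hcard
  have hq : 1 < Fintype.card F := Fintype.one_lt_card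
  have hnr : Fintype.card ι ≤ r := (Nat.pow_le_pow_iff_right hq).1 hcard
  have hrn := Cfsg.Agent.Lib.Helper58.Asch.dvd_card_of_field K hK
  have heven := Cfsg.Agent.Lib.Helper55.Asch.even_card_of_symplectic f hf
  have hnr' : Fintype.card ι = r := Nat.le_antisymm hnr (Nat.le_of_dvd (by omega) hrn)
  rw [hnr'] at heven hι
  have := hr.even_iff.1 heven
  omega

end Cfsg.Agent.Lib.Helper23.Sp
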