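import Cfsg.Agent.Lib.Helper23.Sp.Adj

set_option autoImplicit false
set_option linter.unusedSectionVars false

namespace Cfsg.Agent.Lib.Helper23.Sp

open Cfsg Cfsg.Geo Matrix Cfsg.Agent.Lib.Helper13.Asch Cfsg.Agent.Lib.Helper90.Sp
open scoped Kronecker MatrixGroups

variable {ι : Type} [Fintype ι] [DecidableEq ι] {F : Type*} [Field F]

/-- SE3 -/
theorem degree_two_of_not_selfadjoint [Fintype F] {f : (ι → F) → (ι → F) → F}
    (hf : IsSymplecticForm f) {r : ℕ} (hr : r.Prime) (K : Subalgebra F (Matrix ι ι F))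
    (hK : IsFieldSubalgebra r K) (hadj : IsAdjointClosedFor f K) (hnsa : ¬ IsSelfAdjointFor f K) :
    r = 2 ∧ ∀ k ∈ K, (∀ u v, f (k *ᵥ u) v = f u (k *ᵥ v)) → ∃ c : F, k = c • 1 := by
  classical
  have hb := hf.bilinear
  have hn := hf.nondegenerate
  have hnt : Nontrivial (Matrix ι ι F) := by
    by_contra h
    rw [not_nontrivial_iff_subsingleton] at h
    apply hnsa
    intro k hk u v
    rw [Subsingleton.elim k 1, one_mulVec, one_mulVec]
  have hfield : IsField ↥K :=
    { exists_pair_ne := ⟨0, 1, fun h => zero_ne_one (congrArg Subtype.val h)⟩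
      mul_comm := fun x y => Subtype.ext (hK.comm x.1 x.2 y.1 y.2)
      mul_inv_cancel := by
        intro a ha
        obtain ⟨y, hy, hay⟩ := hK.inv a.1 a.2 (fun h => ha (Subtype.ext h))
        exact ⟨⟨y, hy⟩, Subtype.ext hay⟩ }
  let instF : Field ↥K := hfield.toField
  let instA : Algebra F ↥K := K.algebra
  have hfinite : Finite ↥K := inferInstance
  choose! t ht1 ht2 using hadj
  have hA : ∀ k ∈ K, IsAdj f k (t k) := ht2
  let τf : ↥K → ↥K := fun k => ⟨t k.1, ht1 k.1 k.2⟩
  have hτ : ∀ (k : ↥K) (y : Matrix ι ι F), IsAdj f k.1 y → (τf k).1 = y :=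
    fun k y hy => (hA k.1 k.2).unique hb hn hy
  let τ : ↥K ≃ₐ[F] ↥K :=
    { toFun := τf
      invFun := τf
      left_inv := fun k => Subtype.ext (hτ _ _ ((hA k.1 k.2).symm hf.skew))
      right_inv := fun k => Subtype.ext (hτ _ _ ((hA k.1 k.2).symm hf.skew))
      map_mul' := fun x y => Subtype.ext (hτ _ _ (by
          have := (hA x.1 x.2).mul (hA y.1 y.2)
          rw [hK.comm _ (ht1 _ y.2) _ (ht1 _ x.2)] at this
          exact this))
      map_add' := fun x y => Subtype.ext (hτ _ _ ((hA x.1 x.2).add hb (hA y.1 y.2)))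
      commutes' := fun c => Subtype.ext (hτ _ _ (by
          show IsAdj f (algebraMap F (Matrix ι ι F) c) (algebraMap F (Matrix ι ι F) c)
          rw [Algebra.algebraMap_eq_smul_one]
          exact (IsAdj.one f).smul hb c)) }
  have hτ2 : τ ^ 2 = 1 := by
    apply AlgEquiv.ext
    intro k
    exact τ.left_inv k
  have hτ1 : τ ≠ 1 := by
    intro h
    apply hnsa
    intro k hk u v
    have h1 : (τ ⟨k, hk⟩).1 = k := by rw [h]; rfl
    have h2 := hA k hk u v
    rw [show t k = k from h1] at h2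
    exact h2
  have hord : orderOf τ = 2 := orderOf_eq_prime hτ2 hτ1
  set Hs := Subgroup.zpowers τ with hHs
  have hcard : Nat.card Hs = 2 := by rw [Nat.card_zpowers, hord]
  have hfd : FiniteDimensional F ↥K := Module.Finite.of_finite
  have hfix : Module.finrank (IntermediateField.fixedField Hs) ↥K = 2 := by
    rw [IntermediateField.finrank_fixedField_eq_card, hcard]
  have hmul := Module.finrank_mul_finrank F (IntermediateField.fixedField Hs) ↥K
  have hrK : Module.finrank F ↥K = r := hK.finrank_eq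
  rw [hfix, hrK] at hmul
  have h2r : 2 ∣ r := Dvd.intro_left _ hmul
  have hr2 : r = 2 := ((Nat.prime_dvd_prime_iff_eq Nat.prime_two hr).1 h2r).symm
  refine ⟨hr2, ?_⟩
  have hone : Module.finrank F (IntermediateField.fixedField Hs) = 1 := by omega
  have hbot : IntermediateField.fixedField Hs = ⊥ := IntermediateField.finrank_eq_one_iff.1 hone
  intro k hk hsa
  have hmemE : (⟨k, hk⟩ : ↥K) ∈ IntermediateField.fixedField Hs := by
    rw [IntermediateField.mem_fixedField_iff]
    intro g hg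
    have h1 : τ ∈ MulAction.stabilizer (↥K ≃ₐ[F] ↥K) (⟨k, hk⟩ : ↥K) := by
      rw [MulAction.mem_stabilizer_iff, AlgEquiv.smul_def]
      exact Subtype.ext (hτ _ _ hsa)
    have h2 : Hs ≤ MulAction.stabilizer (↥K ≃ₐ[F] ↥K) (⟨k, hk⟩ : ↥K) := by
      rw [hHs, Subgroup.zpowers_le]; exact h1
    have h3 := h2 hg
    rwa [MulAction.mem_stabilizer_iff, AlgEquiv.smul_def] at h3
  rw [hbot, IntermediateField.mem_bot] at hmemE
  obtain ⟨c, hc⟩ := hmemE
  refine ⟨c, ?_⟩
  have h4 := congrArg Subtype.val hc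
  rw [Algebra.smul_def, mul_one]
  exact h4.symm

end Cfsg.Agent.Lib.Helper23.Sp
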